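import Mathlib
import Cfsg.Prelude.Def_Characters

/-! # S4959 (real vectors for the `k(GV)` problem): definitions.

`Good p δ`: a character `Θ` of `H × C_p` with `Θ(h,z)^4 δ(h)^2 = p^k` for `z ≠ 1`
(so `ψ = Θ(1,z) / Θ(h,z)` is Knörr's "square root" of `δ`).
`ix ρ U h = |U : C_U(h)|`. -/

set_option autoImplicit false

namespace Cfsg.Agent.KRV

open Cfsg

/-- the cyclic group of order `p` -/
abbrev Cp (p : ℕ) := Multiplicative (ZMod p)

def Good (p : ℕ) {H : Type*} [Group H] (δ : H → ℕ) : Prop :=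
  ∃ (Θ : H × Cp p → ℂ) (k : ℕ), IsCharacter (H × Cp p) Θ ∧
    ∀ (h : H) (z : Cp p), z ≠ 1 → Θ (h, z) ^ 4 * (δ h : ℂ) ^ 2 = (p : ℂ) ^ k

/-- `|U : C_U(h)|` -/
noncomputable def ix {F H V : Type*} [Field F] [Group H] [AddCommGroup V] [Module F V]
    (ρ : Representation F H V) (U : Submodule F V) (h : H) : ℕ :=
  (LinearMap.ker (ρ h - 1)).toAddSubgroup.relIndex U.toAddSubgroup

end Cfsg.Agent.KRV
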