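import Mathlib
import Cfsg.Agent.KRV.Defs
import Cfsg.Agent.Char.Degrees
import Cfsg.Agent.Char.Zeros
import Cfsg.Agent.Char.InducedRep

/-! S4959: Gauss sum characters. -/

set_option autoImplicit false
set_option linter.unusedSectionVars false

namespace Cfsg.Agent.KRV

open Cfsg Cfsg.Agent.Char
open scoped ComplexConjugate

variable {p : ℕ} [hp : Fact p.Prime] {H : Type*} [Group H] [Finite H]

theorem Good.mul {δ δ' : H → ℕ} (h : Good p δ) (h' : Good p δ') : Good p fun x => δ x * δ' x := by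
  obtain ⟨Θ, k, h1, h2⟩ := h
  obtain ⟨Θ', k', h1', h2'⟩ := h'
  refine ⟨Θ * Θ', k + k', h1.mul h1', fun x z hz => ?_⟩
  rw [pow_add, ← h2 x z hz, ← h2' x z hz, Pi.mul_apply, Nat.cast_mul]
  ring

theorem good_one : Good p fun _ : H => 1 := by
  exact ⟨fun _ => 1, 0, isCharacter_one, fun _ _ _ => by simp⟩

variable {V : Type*} [AddCommGroup V] [Module (ZMod p) V] [Finite V]

/-- Gauss sum over a subspace `C` on which `B` is nondegenerate: `G = ∑ x ∈ C, ψ (Q x)`.
`G * conj G = ∑ t, ψ (Q t) ∑ y, ψ (B t y) = |C|` (substitute `x = y + t`; `B` is symmetric on `C`).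
`G^2 = (conj G)^2`: choose `a^2 + b^2 = -1` (`ZMod.sq_add_sq`); the bijection
`(x, y) ↦ (a x + b y, - b x + a y)` of `C × C` (its square-type inverse exists since `a^2+b^2 = -1`)
sends `Q x + Q y` to `-(Q x + Q y)`. -/
theorem gauss_four (ψ : AddChar (ZMod p) ℂ) (hψ : ψ ≠ 1) (C : Submodule (ZMod p) V) [Fintype C]
    (Q : V → ZMod p) (B : LinearMap.BilinForm (ZMod p) V)
    (hQ : ∀ x ∈ C, ∀ y ∈ C, Q (x + y) = Q x + Q y + B x y)
    (hs : ∀ (a : ZMod p), ∀ x ∈ C, Q (a • x) = a ^ 2 * Q x)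
    (hB : ∀ x ∈ C, (∀ y ∈ C, B x y = 0) → x = 0) :
    (∑ x : C, ψ (Q x)) ^ 4 = (Nat.card C : ℂ) ^ 2 := by
  classical
  have h1 : (∑ x : C, ψ (Q x)) * ∑ x : C, ψ (-Q x) = Nat.card C := by
    rw [Finset.sum_mul_sum, Finset.sum_comm]
    have e : ∀ y : C, ∑ x : C, ψ (Q x) * ψ (-Q y) = ∑ t : C, ψ (Q t) * ψ (B t y) := fun y => by
      rw [← Equiv.sum_comp (Equiv.addRight y)]
      refine Finset.sum_congr rfl fun t _ => ?_
      rw [← AddChar.map_add_eq_mul, ← AddChar.map_add_eq_mul, Equiv.coe_addRight, Submodule.coe_add,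
        hQ _ t.2 _ y.2]
      congr 1
      ring
    simp only [e]
    rw [Finset.sum_comm, Finset.sum_eq_single 0 (fun t _ ht => ?_) (fun h => absurd (Finset.mem_univ _) h)]
    · have := hs 0 0 (zero_mem _)
      rw [zero_smul, sq, zero_mul, zero_mul] at this
      simp [this]
    rw [← Finset.mul_sum]
    obtain ⟨y, hy, n⟩ : ∃ y ∈ C, B t y ≠ 0 := by
      by_contra! k
      exact ht (Subtype.ext (hB _ t.2 k))
    obtain ⟨a, ha⟩ := AddChar.ne_one_iff.1 hψ
    have := (AddChar.sum_eq_zero_iff_ne_zero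
      (ψ := ψ.compAddMonoidHom ((B t).comp C.subtype).toAddMonoidHom)).2 (AddChar.ne_one_iff.2
        ⟨(a / B t y) • ⟨y, hy⟩, by simpa [div_mul_cancel₀ a n] using ha⟩)
    exact mul_eq_zero_of_right _ this
  have h2 : (∑ x : C, ψ (-Q x)) ^ 2 = (∑ x : C, ψ (Q x)) ^ 2 := by
    obtain ⟨a, b, hab⟩ := ZMod.sq_add_sq p (-1)
    let f : C × C → C × C := fun u => (a • u.1 + b • u.2, (-b) • u.1 + a • u.2)
    have hf : Function.Bijective f := Finite.injective_iff_bijective.1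
      (Function.LeftInverse.injective (g := fun u => (b • u.2 - a • u.1, -(b • u.1 + a • u.2))) fun u => by
        refine Prod.ext ?_ ?_
        · change b • ((-b) • u.1 + a • u.2) - a • (a • u.1 + b • u.2) = u.1
          linear_combination (norm := module) hab • (-u.1)
        · change -(b • (a • u.1 + b • u.2) + a • ((-b) • u.1 + a • u.2)) = u.2
          linear_combination (norm := module) hab • (-u.2))
    rw [sq, sq, Finset.sum_mul_sum, Finset.sum_mul_sum, ← Fintype.sum_prod_type', ← Fintype.sum_prod_type',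
      ← hf.sum_comp]
    refine Finset.sum_congr rfl fun u _ => ?_
    rw [← AddChar.map_add_eq_mul, ← AddChar.map_add_eq_mul]
    congr 1
    simp only [f, Submodule.coe_add, Submodule.coe_smul]
    rw [hQ _ (C.smul_mem _ u.1.2) _ (C.smul_mem _ u.2.2), hQ _ (C.smul_mem _ u.1.2) _ (C.smul_mem _ u.2.2),
      hs _ _ u.1.2, hs _ _ u.1.2, hs _ _ u.2.2, hs _ _ u.2.2]
    simp only [map_smul, LinearMap.smul_apply, smul_eq_mul]
    linear_combination (-(Q u.1 + Q u.2)) * hab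
  rw [← h1, mul_pow, h2]
  ring

/-- coprime action: an invariant form nondegenerate on `U` is nondegenerate on `C_U(h)`
(average `y` over `⟨h⟩`: `B x (∑ i < orderOf h, ρ h^i y) = orderOf h * B x y` for fixed `x`). -/
theorem nondeg_fix (hH : ¬ p ∣ Nat.card H) (ρ : Representation (ZMod p) H V) (U : Submodule (ZMod p) V)
    (hU : ∀ h, ∀ x ∈ U, ρ h x ∈ U) (B : LinearMap.BilinForm (ZMod p) V)
    (hi : ∀ h, ∀ x ∈ U, ∀ y ∈ U, B (ρ h x) (ρ h y) = B x y)
    (hB : ∀ x ∈ U, (∀ y ∈ U, B x y = 0) → x = 0) (h : H) :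
    ∀ x ∈ U ⊓ LinearMap.ker (ρ h - 1), (∀ y ∈ U ⊓ LinearMap.ker (ρ h - 1), B x y = 0) → x = 0 := by
  intro x hx k
  have fx : ρ h x = x := sub_eq_zero.1 (LinearMap.mem_ker.1 hx.2)
  have fi : ∀ i : ℕ, ρ (h ^ i) x = x := fun i => by
    induction i with
    | zero => simp
    | succ i ih => rw [pow_succ, map_mul, Module.End.mul_apply, fx, ih]
  refine hB x hx.1 fun y hy => ?_
  have e := Finset.sum_range_succ (fun i => ρ (h ^ i) y) (orderOf h)
  rw [Finset.sum_range_succ', pow_orderOf_eq_one, pow_zero, add_left_inj] at e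
  have := k (∑ i ∈ Finset.range (orderOf h), ρ (h ^ i) y) ⟨sum_mem fun i _ => hU _ _ hy,
    LinearMap.mem_ker.2 (sub_eq_zero.2 (by
      rw [Module.End.one_apply, map_sum, ← e]
      simp only [pow_succ', map_mul, Module.End.mul_apply]))⟩
  rw [map_sum, Finset.sum_congr rfl fun i _ => (show B x (ρ (h ^ i) y) = B x y by
    rw [← hi (h ^ i) x hx.1 y hy, fi]), Finset.sum_const, Finset.card_range, nsmul_eq_mul] at this
  exact (mul_eq_zero.1 this).resolve_left fun n =>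
    hH (((ZMod.natCast_eq_zero_iff _ _).1 n).trans (orderOf_dvd_natCard h))

namespace Gau

variable [DecidableEq V] (ρ : Representation (ZMod p) H V) (U : Submodule (ZMod p) V) [Fintype U]
  (hU : ∀ h, ∀ x ∈ U, ρ h x ∈ U) (Q : V → ZMod p) (hi : ∀ h, ∀ x ∈ U, Q (ρ h x) = Q x)

/-- the monomial representation -/
noncomputable def mon : H × Cp p →* Matrix U U ℂ where
  toFun g := Matrix.of fun x y =>
    if (x : V) = ρ g.1 y then ZMod.stdAddChar (g.2.toAdd * Q x) else 0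
  map_one' := by
    ext x y
    simp [Matrix.one_apply]
  map_mul' a b := by
    ext x y
    rw [Matrix.mul_apply, Finset.sum_eq_single ⟨ρ b.1 y, hU _ _ y.2⟩
      (fun t _ ht => by rw [Matrix.of_apply, Matrix.of_apply, if_neg fun e => ht (Subtype.ext e), mul_zero])
      (fun h => absurd (Finset.mem_univ _) h)]
    simp only [Matrix.of_apply, Prod.fst_mul, Prod.snd_mul, map_mul, Module.End.mul_apply, if_true,
      toAdd_mul]
    split_ifs with e
    · rw [e, hi _ _ (hU _ _ y.2), add_mul, AddChar.map_add_eq_mul]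
    · rw [zero_mul]

theorem mon_trace (h : H) (z : Cp p) [Fintype ↥(U ⊓ LinearMap.ker (ρ h - 1))] :
    (mon ρ U hU Q hi (h, z)).trace =
      ∑ x : ↥(U ⊓ LinearMap.ker (ρ h - 1)), ZMod.stdAddChar.mulShift z.toAdd (Q x) := by
  change ∑ x : U, (if (x : V) = ρ h x then ZMod.stdAddChar (z.toAdd * Q x) else 0) = _
  rw [← Finset.sum_filter]
  symm
  refine Finset.sum_bij (fun x _ => ⟨x, x.2.1⟩) (fun x _ => ?_) (fun x _ y _ e => ?_)
    (fun x hx => ⟨⟨x, x.2, ?_⟩, Finset.mem_univ _, rfl⟩) fun x _ => rfl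
  · exact Finset.mem_filter.2 ⟨Finset.mem_univ _, (sub_eq_zero.1 (LinearMap.mem_ker.1 x.2.2)).symm⟩
  · exact Subtype.ext (congrArg Subtype.val e :)
  · exact LinearMap.mem_ker.2 (sub_eq_zero.2 (Finset.mem_filter.1 hx).2.symm)

theorem card_ix (h : H) : Nat.card ↥(U ⊓ LinearMap.ker (ρ h - 1)) * ix ρ U h = Nat.card U := by
  rw [ix, AddSubgroup.relIndex]
  refine Eq.trans ?_ (AddSubgroup.card_mul_index
    ((LinearMap.ker (ρ h - 1)).toAddSubgroup.addSubgroupOf U.toAddSubgroup))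
  congr 1
  exact Nat.card_congr ⟨fun x => ⟨⟨x, x.2.1⟩, x.2.2⟩, fun x => ⟨x.1, x.1.2, x.2⟩, fun _ => rfl, fun _ => rfl⟩

end Gau

/-- The monomial representation of `H × C_p` on `U → ℂ`,
`((h, z) • f) x = ψ₀ (toAdd z * Q x) * f (ρ h⁻¹ x)` (`ψ₀ = ZMod.stdAddChar` or `ZMod.toCircle`), has
character `Θ(h,z) = ∑ x ∈ C_U(h), ψ₀ (toAdd z * Q x)`; `B` is invariant since `Q` is;
`gauss_four` (with `ψ = ψ₀.mulShift`), `nondeg_fix`; `|C_U(h)| * ix = |U| = p ^ n`.
(A character of a representation on any finite-dimensional space is `IsCharacter`: see Char/*.) -/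
theorem good_quad (hH : ¬ p ∣ Nat.card H) (ρ : Representation (ZMod p) H V) (U : Submodule (ZMod p) V)
    (hU : ∀ h, ∀ x ∈ U, ρ h x ∈ U) (Q : V → ZMod p) (B : LinearMap.BilinForm (ZMod p) V)
    (hQ : ∀ x ∈ U, ∀ y ∈ U, Q (x + y) = Q x + Q y + B x y)
    (hs : ∀ (a : ZMod p), ∀ x ∈ U, Q (a • x) = a ^ 2 * Q x)
    (hi : ∀ h, ∀ x ∈ U, Q (ρ h x) = Q x)
    (hB : ∀ x ∈ U, (∀ y ∈ U, B x y = 0) → x = 0) : Good p (ix ρ U) := by
  classical
  have := Fintype.ofFinite U
  refine ⟨_, Module.finrank (ZMod p) U * 2, isCharacter_trace (Gau.mon ρ U hU Q hi), fun h z hz => ?_⟩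
  have := Fintype.ofFinite ↥(U ⊓ LinearMap.ker (ρ h - 1))
  rw [Gau.mon_trace, gauss_four _ (ZMod.isPrimitive_stdAddChar p (a := z.toAdd) hz)
    (U ⊓ LinearMap.ker (ρ h - 1)) Q B
    (fun x hx y hy => hQ x hx.1 y hy.1) (fun a x hx => hs a x hx.1)
    (nondeg_fix hH ρ U hU B (fun g x hx y hy => ?_) hB h), ← mul_pow, ← Nat.cast_mul, Gau.card_ix,
    Module.natCard_eq_pow_finrank (K := ZMod p), Nat.card_zmod, pow_mul, Nat.cast_pow]
  have e := hQ _ (hU g x hx) _ (hU g y hy)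
  rw [← map_add, hi _ _ (add_mem hx hy), hi _ _ hx, hi _ _ hy, hQ x hx y hy] at e
  exact (add_left_cancel e).symm

end Cfsg.Agent.KRV
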