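import Mathlib
import Cfsg.Agent.KRV.Defs
import Cfsg.Agent.Char.CycCoset
import Cfsg.Agent.Char.Zeros
import Cfsg.Agent.Char.Degrees
import Cfsg.Agent.Char.Galois

/-! S4959: Knörr's bound from a square root of `δ`. -/

set_option autoImplicit false
set_option linter.unusedSectionVars false

namespace Cfsg.Agent.KRV

open Cfsg Cfsg.Agent.Char
open scoped ComplexConjugate

variable {p : ℕ} [hp : Fact p.Prime] {H : Type*} [Group H] [Finite H]

theorem isIntegral_natCast' (n : ℕ) : IsIntegral ℤ (n : ℂ) := by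
  exact_mod_cast isIntegral_algebraMap (R := ℤ) (A := ℂ) (x := n)

/-- for fixed `z`, the Fourier coefficients of `h ↦ β (h, z)` are algebraic integers
(`isCharacter_cin` with `i = MonoidHom.inl`, second function `φ ∘ fst`; character values are
integral; write `β` as a difference of characters). -/
theorem int_coef [Fintype H] {β : H × Cp p → ℂ} (hβ : IsGeneralizedCharacter (H × Cp p) β)
    (φ : IrrCharacter H) (z : Cp p) :
    IsIntegral ℤ ((Nat.card H : ℂ)⁻¹ * ∑ h : H, β (h, z) * conj (φ.1 h)) := by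
  have hn : (MonoidHom.inl H (Cp p)).range.Normal :=
    ⟨by rintro _ ⟨a, rfl⟩ g; exact ⟨g.1 * a * g.1⁻¹, by ext <;> simp⟩⟩
  have k : ∀ χ : H × Cp p → ℂ, IsCharacter _ χ →
      IsIntegral ℤ ((Nat.card H : ℂ)⁻¹ * ∑ h : H, χ (h, z) * conj (φ.1 h)) := fun χ hχ => by
    have := isCharacter_isIntegral (isCharacter_cin (MonoidHom.inl H (Cp p))
      (fun a b e => congrArg Prod.fst e) hn hχ
      (Cfsg.IsCharacter.comp (Cfsg.IsIrrCharacter.isCharacter φ.2) (MonoidHom.fst H (Cp p)))) (1, z)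
    simpa [cin, classInner] using this
  obtain ⟨χ, ψ, hχ, hψ, rfl⟩ := hβ
  have := (k χ hχ).sub (k ψ hψ)
  simpa only [Pi.sub_apply, sub_mul, Finset.sum_sub_distrib, mul_sub] using this

/-- inverse of a function with values dividing `N`: there is a polynomial `Q` with integral
coefficients and `N ^ card * (θ i)⁻¹ = Q(θ i)` for all `i`.  Proof: `P = ∏ i, (X - θ i)`,
`P = X * divX P + P(0)`, `P(0) = ± ∏ θ i`, `N ^ card / ∏ θ i = ∏ (N / θ i)` is integral.
(Work in `integralClosure ℤ ℂ`.) -/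
theorem exists_poly_inv {ι : Type*} [Fintype ι] (θ : ι → ℂ) (N : ℂ) (h0 : ∀ i, θ i ≠ 0)
    (h1 : ∀ i, IsIntegral ℤ (θ i)) (h2 : ∀ i, IsIntegral ℤ (N / θ i)) :
    ∃ Q : Polynomial ℂ, (∀ j, IsIntegral ℤ (Q.coeff j)) ∧
      ∀ i, N ^ Fintype.card ι * (θ i)⁻¹ = Q.eval (θ i) := by
  classical
  set P : Polynomial ℂ := ∏ i, (Polynomial.X - Polynomial.C (θ i)) with hP
  have hc : ∀ j, IsIntegral ℤ (P.coeff j) := by
    refine Finset.prod_induction _ (fun Q : Polynomial ℂ => ∀ j, IsIntegral ℤ (Q.coeff j))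
      (fun a b ha hb j => ?_) (fun j => ?_) fun i _ j => ?_
    · rw [Polynomial.coeff_mul]
      exact IsIntegral.sum _ fun c _ => (ha _).mul (hb _)
    · rw [Polynomial.coeff_one]
      split_ifs
      exacts [isIntegral_one, isIntegral_zero]
    · rw [Polynomial.coeff_sub, Polynomial.coeff_X, Polynomial.coeff_C]
      refine IsIntegral.sub ?_ ?_ <;> split_ifs
      exacts [isIntegral_one, isIntegral_zero, h1 i, isIntegral_zero]
  have hu : IsIntegral ℤ (∏ i, -(N / θ i)) := IsIntegral.prod _ fun i _ => (h2 i).neg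
  refine ⟨Polynomial.C (-∏ i, -(N / θ i)) * P.divX, fun j => ?_, fun i => ?_⟩
  · rw [Polynomial.coeff_C_mul, Polynomial.coeff_divX]
    exact hu.neg.mul (hc _)
  · have e1 : P.eval (θ i) = 0 := by
      rw [hP, Polynomial.eval_prod]
      exact Finset.prod_eq_zero (Finset.mem_univ i) (by simp)
    have e2 : P.coeff 0 = ∏ i, -θ i := by
      rw [Polynomial.coeff_zero_eq_eval_zero, hP, Polynomial.eval_prod]
      simp
    have e3 : (∏ i, -(N / θ i)) * ∏ i, -θ i = N ^ Fintype.card ι := by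
      rw [← Finset.prod_mul_distrib, Finset.prod_congr rfl (g := fun _ => N) fun j _ => by
        have := h0 j
        field_simp]
      simp
    rw [← Polynomial.X_mul_divX_add P, Polynomial.eval_add, Polynomial.eval_mul, Polynomial.eval_X,
      Polynomial.eval_C, e2] at e1
    rw [Polynomial.eval_mul, Polynomial.eval_C, ← e3]
    have := h0 i
    field_simp
    linear_combination (∏ i, -(N / θ i)) * e1

/-- if `a c` and `b c` are integral with `a, b` coprime then `c` is integral (Bezout). -/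
theorem int_of_coprime {a b : ℕ} (h : a.Coprime b) {c : ℂ} (ha : IsIntegral ℤ ((a : ℂ) * c))
    (hb : IsIntegral ℤ ((b : ℂ) * c)) : IsIntegral ℤ c := by
  obtain ⟨u, v, e⟩ := Nat.isCoprime_iff_coprime.2 h
  have e' : (u : ℂ) * a + v * b = 1 := by exact_mod_cast congrArg (Int.cast : ℤ → ℂ) e
  have : c = u * (a * c) + v * (b * c) := by linear_combination -c * e'
  rw [this]
  exact ((isIntegral_algebraMap (x := u)).mul ha).add ((isIntegral_algebraMap (x := v)).mul hb)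

/-- non-vanishing modulo a prime over `p`: `x` integral with `x ^ p ^ j = d + p γ` (`d` an integer
prime to `p`, `γ` integral), `e` prime to `p`, `y i` integral, `w i ^ 4 = (m i) ^ 2` with `p ∣ m i`.
Take a maximal ideal `𝔭 ∋ p` of `integralClosure ℤ ℂ` (`p` is not a unit: `1/p` is not integral);
`w i ∈ 𝔭`, `x e ∉ 𝔭`. -/
theorem ne_zero_of_mod {ι : Type*} (s : Finset ι) {x γ : ℂ} {j : ℕ} {d : ℤ} {e : ℕ}
    (hx : IsIntegral ℤ x) (hγ : IsIntegral ℤ γ) (h : x ^ p ^ j = d + p * γ) (hd : ¬ (p : ℤ) ∣ d)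
    (he : ¬ p ∣ e) (y w : ι → ℂ) (m : ι → ℕ) (hy : ∀ i ∈ s, IsIntegral ℤ (y i))
    (hw : ∀ i ∈ s, w i ^ 4 = (m i : ℂ) ^ 2) (hm : ∀ i ∈ s, p ∣ m i) :
    x * e + ∑ i ∈ s, y i * w i ≠ 0 := by
  intro e0
  have hp1 : Ideal.span {(p : integralClosure ℤ ℂ)} ≠ ⊤ := by
    rw [Ne, Ideal.span_singleton_eq_top, isUnit_iff_exists_inv]
    rintro ⟨r, hr⟩
    have h1 : (p : ℂ) * r = 1 := by exact_mod_cast congrArg Subtype.val hr
    have h2 : (r : ℂ) = ((1 : ℕ) : ℂ) / p := by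
      rw [eq_div_iff (Nat.cast_ne_zero.2 hp.out.ne_zero), mul_comm, h1, Nat.cast_one]
    exact hp.out.not_dvd_one (dvd_of_isIntegral_div hp.out.ne_zero (h2 ▸ r.2))
  obtain ⟨M, hM, hle⟩ := Ideal.exists_le_maximal _ hp1
  have hpM : (p : integralClosure ℤ ℂ) ∈ M := hle (Ideal.mem_span_singleton_self _)
  have hP := hM.isPrime
  have nd : ∀ n : ℤ, ¬ (p : ℤ) ∣ n → (n : integralClosure ℤ ℂ) ∉ M := fun n hn k => by
    obtain ⟨u, v, e⟩ := (Nat.prime_iff_prime_int.1 hp.out).coprime_iff_not_dvd.2 hn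
    have e' : (u : integralClosure ℤ ℂ) * p + v * n = 1 := by
      exact_mod_cast congrArg (Int.cast : ℤ → integralClosure ℤ ℂ) e
    exact hP.ne_top ((Ideal.eq_top_iff_one _).2 (e' ▸ M.add_mem (M.mul_mem_left _ hpM) (M.mul_mem_left _ k)))
  obtain ⟨r, hr, er⟩ : ∃ r ∈ M, (r : ℂ) = ∑ i ∈ s, y i * w i := by
    refine Finset.sum_induction _ (fun c : ℂ => ∃ r ∈ M, (r : ℂ) = c) ?_ ⟨0, M.zero_mem, rfl⟩ fun i hi => ?_
    · rintro _ _ ⟨a, ha, rfl⟩ ⟨b, hb, rfl⟩
      exact ⟨a + b, M.add_mem ha hb, rfl⟩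
    · have iw : IsIntegral ℤ (w i) := IsIntegral.of_pow (n := 4) (by norm_num)
        (by rw [hw i hi]; exact (isIntegral_natCast' _).pow 2)
      obtain ⟨t, ht⟩ := hm i hi
      have : (⟨w i, iw⟩ : integralClosure ℤ ℂ) ^ 4 = p * (p * t ^ 2) := Subtype.ext (by
        push_cast
        rw [hw i hi, ht]
        push_cast
        ring)
      exact ⟨⟨y i, hy i hi⟩ * ⟨w i, iw⟩,
        M.mul_mem_left _ (hP.mem_of_pow_mem 4 (this ▸ M.mul_mem_right _ hpM)), rfl⟩
  have e1 : (⟨x, hx⟩ : integralClosure ℤ ℂ) * ((e : ℤ) : integralClosure ℤ ℂ) = -r := Subtype.ext (by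
    push_cast
    rw [er]
    linear_combination e0)
  have hxM : (⟨x, hx⟩ : integralClosure ℤ ℂ) ∈ M :=
    (hP.mem_or_mem (e1 ▸ M.neg_mem hr)).resolve_right (nd _ (by exact_mod_cast he))
  have e2 : ((d : ℤ) : integralClosure ℤ ℂ) = ⟨x, hx⟩ ^ p ^ j - p * ⟨γ, hγ⟩ := Subtype.ext (by
    push_cast
    linear_combination -h)
  exact nd d hd (e2 ▸ M.sub_mem (M.pow_mem_of_mem hxM _ (pow_pos hp.out.pos _)) (M.mul_mem_right _ hpM))

/-- Knörr's bound.  Let `Θ, k` be given by `Good`, `ψ(h,z) = Θ(1,z) / Θ(h,z)`; for `z ≠ 1`: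
`ψ^4 = δ(h)^2` (so `ψ` is integral, `‖ψ‖^2 = δ h`, `ψ(1,z) = 1`).  Put
`c(φ,z) = |H|⁻¹ ∑ h, α(h,z) ψ(h,z) conj (φ h)` on `s = univ ×ˢ (univ.erase 1)`.
* Parseval for the class function `h ↦ α(h,z) ψ(h,z)` of `H`: `|H| ∑ φ, ‖c(φ,z)‖^2 = ∑ h, δ h ‖α(h,z)‖^2`.
* `c` is integral: `|H| c` is; `p^k / Θ(h,z) = Θ^3 δ^2` is integral, so `exists_poly_inv` writes
  `(p^k)^|H| c` as an integral combination of `int_coef` for `β = α * Θ ^ j`; `int_of_coprime`.
* `c ≠ 0`: `ne_zero_of_mod` with `x = α(1,z)` (`exists_pow_prime_pow_eq`, `(1,z)^p = 1`),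
  `e = φ(1) ∣ |H|`.
* Galois: `exists_pow_galois (H × Cp p) σ` gives `m` with `σ (c(φ,z)) = c(φ, z^m)` (reindex
  `h ↦ h^m`; `φ ∘ fst` is a character of the product, `galois_conj`).
`card_le_sum_norm_sq_of_galois`. -/
theorem knorr_lower [Fintype H] (hH : ¬ p ∣ Nat.card H) {δ : H → ℕ} (hδ : Good p δ) (h1 : δ 1 = 1)
    (h2 : ∀ h, h ≠ 1 → p ∣ δ h) {α : H × Cp p → ℂ} (hα : IsCharacter (H × Cp p) α) {d : ℕ}
    (hd : α 1 = d) (hpd : ¬ p ∣ d) :
    ((p : ℝ) - 1) * (Nat.card H * Fintype.card (IrrCharacter H)) ≤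
      ∑ z ∈ Finset.univ.erase (1 : Cp p), ∑ h : H, (δ h : ℝ) * ‖α (h, z)‖ ^ 2 := by
  classical
  obtain ⟨Θ, k, hΘ, hk⟩ := hδ
  have p0 : (p : ℂ) ≠ 0 := Nat.cast_ne_zero.2 hp.out.ne_zero
  have H0 : (Nat.card H : ℂ) ≠ 0 := Nat.cast_ne_zero.2 Nat.card_pos.ne'
  have Θ0 : ∀ h z, z ≠ 1 → Θ (h, z) ≠ 0 := fun h z hz e => pow_ne_zero k p0 (by rw [← hk h z hz, e]; ring)
  set ψ : H → Cp p → ℂ := fun h z => Θ (1, z) / Θ (h, z) with hψ
  have ψ4 : ∀ h z, z ≠ 1 → ψ h z ^ 4 = (δ h : ℂ) ^ 2 := fun h z hz => by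
    have a := hk 1 z hz
    rw [h1, ← hk h z hz] at a
    have := Θ0 h z hz
    simp only [hψ]
    field_simp
    linear_combination a
  have ψi : ∀ h z, z ≠ 1 → IsIntegral ℤ (ψ h z) := fun h z hz => IsIntegral.of_pow (n := 4) (by norm_num)
    (by rw [ψ4 h z hz]; exact (isIntegral_natCast' _).pow 2)
  have ψn : ∀ h z, z ≠ 1 → ‖ψ h z‖ ^ 2 = δ h := fun h z hz => by
    have := congrArg norm (ψ4 h z hz)
    rw [norm_pow, norm_pow, Complex.norm_natCast] at this
    exact (sq_eq_sq₀ (by positivity) (by positivity)).1 (by rw [← this]; ring)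
  have φi : ∀ (φ : IrrCharacter H) h, IsIntegral ℤ (conj (φ.1 h)) := fun φ h =>
    isCharacter_isIntegral (Cfsg.IsCharacter.conj (Cfsg.IsIrrCharacter.isCharacter φ.2)) h
  set c : IrrCharacter H × Cp p → ℂ := fun t => classInner (fun h => α (h, t.2) * ψ h t.2) t.1.1 with hc
  have par : ∀ z : Cp p, z ≠ 1 → (Nat.card H : ℝ) * ∑ φ : IrrCharacter H, ‖c (φ, z)‖ ^ 2 =
      ∑ h : H, (δ h : ℝ) * ‖α (h, z)‖ ^ 2 := fun z hz => by
    have cf : IsClassFunction H fun h => α (h, z) * ψ h z := fun g h => by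
      have e : ((h * g * h⁻¹, z) : H × Cp p) = (h, 1) * (g, z) * (h, 1)⁻¹ := by simp
      simp only [hψ, e, Cfsg.IsCharacter.isClassFunction hα _ _, Cfsg.IsCharacter.isClassFunction hΘ _ _]
    have := Cfsg.IsClassFunction.inner_eq_sum cf fun h => α (h, z) * ψ h z
    rw [classInner_self_eq_sum_normSq] at this
    simp only [Complex.mul_conj'] at this
    have t2 : (Nat.card H : ℝ)⁻¹ * ∑ h : H, ‖α (h, z) * ψ h z‖ ^ 2 = ∑ φ : IrrCharacter H, ‖c (φ, z)‖ ^ 2 := by
      exact_mod_cast this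
    rw [← t2, mul_inv_cancel_left₀ (Nat.cast_ne_zero.2 Nat.card_pos.ne')]
    exact Finset.sum_congr rfl fun h _ => by rw [norm_mul, mul_pow, ψn h z hz, mul_comm]
  have hm : ∀ t ∈ (Finset.univ : Finset (IrrCharacter H)) ×ˢ Finset.univ.erase (1 : Cp p), t.2 ≠ 1 :=
    fun t ht => Finset.ne_of_mem_erase (Finset.mem_product.1 ht).2
  have key := card_le_sum_norm_sq_of_galois
    ((Finset.univ : Finset (IrrCharacter H)) ×ˢ Finset.univ.erase (1 : Cp p)) c (fun t ht e => ?_)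
    (fun t ht => ?_) fun σ => ?_
  · rw [Finset.sum_product_right, Finset.card_product, Finset.card_erase_of_mem (Finset.mem_univ _),
      Finset.card_univ, Finset.card_univ, Fintype.card_multiplicative, ZMod.card] at key
    rw [← Finset.sum_congr rfl fun z hz => par z (Finset.ne_of_mem_erase hz), ← Finset.mul_sum]
    have := mul_le_mul_of_nonneg_left key (Nat.cast_nonneg (α := ℝ) (Nat.card H))
    push_cast [Nat.cast_sub hp.out.one_le] at this
    linarith
  · obtain ⟨φ, z⟩ := t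
    have hz : z ≠ 1 := hm _ ht
    obtain ⟨γ, hγ, eγ⟩ := Cfsg.IsCharacter.exists_pow_prime_pow_eq hα hp.out 1 (1, z)
    have z1 : ((1, z) : H × Cp p) ^ p ^ 1 = 1 := by
      have := pow_card_eq_one (x := z)
      rw [Fintype.card_multiplicative, ZMod.card] at this
      rw [pow_one, Prod.pow_mk, one_pow, this]
      rfl
    rw [z1, hd] at eγ
    refine ne_zero_of_mod (p := p) (Finset.univ.erase (1 : H)) (d := d) (e := charDegree φ.1)
      (isCharacter_isIntegral hα (1, z)) hγ (by exact_mod_cast eγ) (by exact_mod_cast hpd)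
      (fun k => hH (k.trans (charDegree_irr_dvd_card φ))) (fun h => α (h, z) * conj (φ.1 h)) (fun h => ψ h z) δ
      (fun h _ => (isCharacter_isIntegral hα _).mul (φi φ h)) (fun h _ => ψ4 h z hz)
      (fun h hh => h2 h (Finset.ne_of_mem_erase hh)) ?_
    have e' := (mul_eq_zero.1 e).resolve_left (inv_ne_zero H0)
    rw [← Finset.add_sum_erase _ _ (Finset.mem_univ (1 : H))] at e'
    rw [← e', coe_charDegree_irr, Cfsg.IsCharacter.conj_one (Cfsg.IsIrrCharacter.isCharacter φ.2)]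
    simp only [hψ, div_self (Θ0 1 z hz), mul_one]
    congr 1
    exact Finset.sum_congr rfl fun h _ => by ring
  · obtain ⟨φ, z⟩ := t
    have hz : z ≠ 1 := hm _ ht
    obtain ⟨Q, hQ, eQ⟩ := exists_poly_inv (fun h => Θ (h, z)) ((p : ℂ) ^ k) (fun h => Θ0 h z hz)
      (fun h => isCharacter_isIntegral hΘ _) fun h => by
        have : (p : ℂ) ^ k / Θ (h, z) = Θ (h, z) ^ 3 * (δ h : ℂ) ^ 2 := by
          rw [div_eq_iff (Θ0 h z hz), ← hk h z hz]; ring
        rw [this]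
        exact ((isCharacter_isIntegral hΘ _).pow 3).mul ((isIntegral_natCast' _).pow 2)
    refine int_of_coprime (a := (p ^ k) ^ Fintype.card H) (b := Nat.card H)
      ((((Nat.Prime.coprime_iff_not_dvd hp.out).2 hH).pow_left _).pow_left _) ?_ ?_
    · have : (((p ^ k) ^ Fintype.card H : ℕ) : ℂ) * c (φ, z) = ∑ j ∈ Finset.range (Q.natDegree + 1),
          Θ (1, z) * Q.coeff j * ((Nat.card H : ℂ)⁻¹ * ∑ h : H, (α * Θ ^ j) (h, z) * conj (φ.1 h)) := by
        simp only [hc, classInner, Finset.mul_sum]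
        rw [Finset.sum_comm]
        refine Finset.sum_congr rfl fun h _ => ?_
        have := eQ h
        rw [Polynomial.eval_eq_sum_range] at this
        calc _ = Θ (1, z) * (Nat.card H : ℂ)⁻¹ * α (h, z) * conj (φ.1 h) *
              (((p : ℂ) ^ k) ^ Fintype.card H * (Θ (h, z))⁻¹) := by
                simp only [hψ]; push_cast; ring
          _ = _ := by
            rw [this, Finset.mul_sum]
            exact Finset.sum_congr rfl fun j _ => by simp only [Pi.mul_apply, Pi.pow_apply]; ring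
      rw [this]
      exact IsIntegral.sum _ fun j _ => ((isCharacter_isIntegral hΘ _).mul (hQ j)).mul
        (int_coef (Cfsg.IsCharacter.isGen (Cfsg.IsCharacter.mul hα (Cfsg.IsCharacter.pow hΘ j))) φ z)
    · simp only [hc, classInner]
      rw [mul_inv_cancel_left₀ H0]
      exact IsIntegral.sum _ fun h _ => ((isCharacter_isIntegral hα _).mul (ψi h z hz)).mul (φi φ h)
  · obtain ⟨m, hm1, hm2⟩ := exists_pow_galois (H × Cp p) σ.toRingHom
    rw [Nat.card_prod] at hm1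
    have i1 := pow_injective_of_coprime (G := Cp p) (Nat.Coprime.coprime_mul_left_right hm1)
    have i2 := pow_injective_of_coprime (G := H) (Nat.Coprime.coprime_mul_right_right hm1)
    refine ⟨fun t => (t.1, t.2 ^ m), fun t ht => Finset.mem_product.2 ⟨Finset.mem_univ _,
      Finset.mem_erase.2 ⟨fun e => hm t ht (i1 (e.trans (one_pow m).symm)), Finset.mem_univ _⟩⟩,
      fun t _ t' _ e => Prod.ext (congrArg Prod.fst e :) (i1 (congrArg Prod.snd e :)), fun t _ => ?_⟩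
    obtain ⟨φ, z⟩ := t
    have a1 : ∀ g, σ (α g) = α (g ^ m) := hm2 α (Cfsg.IsCharacter.isGen hα)
    have a2 : ∀ g, σ (Θ g) = Θ (g ^ m) := hm2 Θ (Cfsg.IsCharacter.isGen hΘ)
    have a3 : ∀ h, σ (conj (φ.1 h)) = conj (φ.1 (h ^ m)) := fun h =>
      (Cfsg.IsGeneralizedCharacter.galois_conj (Cfsg.IsIrrCharacter.isGen φ.2) σ.toRingHom h).trans
        (congrArg conj (hm2 _ (Cfsg.IsCharacter.isGen (Cfsg.IsCharacter.comp
          (Cfsg.IsIrrCharacter.isCharacter φ.2) (MonoidHom.fst H (Cp p)))) (h, 1)))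
    simp only [hc, hψ, classInner, map_mul, map_inv₀, map_natCast, map_sum, map_div₀, a1, a2, a3, Prod.pow_mk,
      one_pow]
    congr 1
    exact Fintype.sum_bijective _ (Finite.injective_iff_bijective.1 i2) _ _ fun _ => rfl

end Cfsg.Agent.KRV
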