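import Mathlib
import Cfsg.Agent.KRV.Defs
import Cfsg.Agent.KSG.Weil
import Cfsg.Agent.Char.Galois
import Cfsg.Agent.Char.Degrees
import Cfsg.Agent.Class.FormBasis
import Cfsg.Agent.Class.Sp.Abstract

/-! S4959: the Weil character on a `p'`-subgroup. -/

set_option autoImplicit false
set_option linter.unusedSectionVars false

namespace Cfsg.Agent.KRV

open Cfsg Cfsg.Agent.Char
open scoped ComplexConjugate

variable {p : ℕ} [hp : Fact p.Prime] {H : Type*} [Group H] [Finite H]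

open Cfsg.Agent.KSG in
/-- `tr M * tr M⁻¹` is the trace of `X ↦ M X M⁻¹` on `End`, which permutes `heisBasis` like `g`. -/
theorem trace_mul_trace_inv {n : ℕ} (h2 : (2 : ZMod p) ≠ 0) {ψ : AddChar (ZMod p) ℂ} (hψ : ψ ≠ 1)
    {g : Matrix.symplecticGroup (Fin n) (ZMod p)} {M N : Module.End ℂ ((Fin n → ZMod p) → ℂ)}
    (hM : HeisImpl ψ g M) (hMN : M * N = 1) :
    LinearMap.trace ℂ _ M * LinearMap.trace ℂ _ N =
      Nat.card {v : Fin n ⊕ Fin n → ZMod p // g • v = v} := by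
  classical
  have e := Representation.char_linHom (Units.coeHom (Module.End ℂ ((Fin n → ZMod p) → ℂ))) (Units.coeHom _)
    ⟨M, N, hMN, mul_eq_one_comm.1 hMN⟩
  change LinearMap.trace ℂ _ _ = LinearMap.trace ℂ _ N * LinearMap.trace ℂ _ M at e
  rw [mul_comm, ← e, LinearMap.trace_eq_matrix_trace ℂ (heisBasis h2 hψ), Matrix.trace,
    Nat.card_eq_fintype_card, Fintype.card_subtype, Finset.card_filter, Nat.cast_sum]
  refine Finset.sum_congr rfl fun v _ => ?_
  rw [Matrix.diag_apply, LinearMap.toMatrix_apply, Representation.linHom_apply]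
  change (heisBasis h2 hψ).repr (M * (heisBasis h2 hψ v * N)) v = _
  rw [heisBasis_apply, ← mul_assoc, hM, mul_assoc, hMN, mul_one, ← heisBasis_apply h2 hψ, Module.Basis.repr_self,
    Finsupp.single_apply]
  split_ifs <;> simp

/-- entrywise application of a field automorphism -/
theorem wl_gal {ι : Type*} [Fintype ι] [DecidableEq ι] (σ : ℂ →+* ℂ) :
    ∃ S : Module.End ℂ (ι → ℂ) →* Module.End ℂ (ι → ℂ), (∀ M, LinearMap.det (S M) = σ (LinearMap.det M)) ∧
      (∀ M, LinearMap.trace ℂ _ (S M) = σ (LinearMap.trace ℂ _ M)) ∧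
      ∀ M, (∀ i j, σ (M (Pi.single j 1) i) = M (Pi.single j 1) i) → S M = M := by
  refine ⟨(Matrix.toLinAlgEquiv' (R := ℂ) (n := ι)).toRingEquiv.toMonoidHom.comp (σ.mapMatrix.toMonoidHom.comp
    (LinearMap.toMatrixAlgEquiv' (R := ℂ) (n := ι)).toRingEquiv.toMonoidHom), fun M => ?_, fun M => ?_,
    fun M h => ?_⟩
  · change LinearMap.det (Matrix.toLin' (σ.mapMatrix (LinearMap.toMatrix' M))) = _
    rw [LinearMap.det_toLin', ← RingHom.map_det, LinearMap.det_toMatrix']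
  · change LinearMap.trace ℂ _ (Matrix.toLin' ((LinearMap.toMatrix' M).map σ)) = _
    rw [Matrix.trace_toLin'_eq, ← AddMonoidHom.map_trace, ← Matrix.trace_toLin'_eq, Matrix.toLin'_toMatrix']
  · change Matrix.toLin' ((LinearMap.toMatrix' M).map σ) = _
    rw [show (LinearMap.toMatrix' M).map σ = LinearMap.toMatrix' M from Matrix.ext fun i j => by
      simpa [LinearMap.toMatrix'_apply] using h i j, Matrix.toLin'_toMatrix']

open Cfsg.Agent.KSG in
/-- The Weil character, normalised to determinant one on `H`, is real.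
`ρ₀ = weilRep ∘ f`, `μ h = (det (ρ₀ h))^r` with `r * p^n + 1 ≡ 0 mod |H|` (`det (ρ₀ h) ^ |H| = 1`),
`ρ h = μ h • ρ₀ h` is a representation with `det = 1` (dimension `p^n`), `HeisImpl ψ (f h) (ρ h)`.
`exists_ringEquiv_pow` with modulus `p * |H|` and exponent `m ≡ 1 (p)`, `m ≡ -1 (|H|)`: `σ` fixes the
values of `ψ`.  `M ↦ toLin' ((toMatrix' M).map σ)` is multiplicative and fixes every `heis ψ v`, so
`σ(ρ h) = c • ρ h` (`HeisImpl.exists_smul`); determinants: `c ^ p^n = 1`; `(ρ h)^|H| = 1`: `c^|H| = 1`;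
so `c = 1` and `σ (ξ h) = ξ h`, while `σ (ξ h) = ξ (h^m) = ξ h⁻¹` (`IsCharacter.galois_apply`).
With `trace_mul_trace_inv`: `ξ h ^ 2 = |C(h)|`. -/
theorem exists_weil {n : ℕ} (h2 : (2 : ZMod p) ≠ 0) (hH : ¬ p ∣ Nat.card H)
    (f : H →* Matrix.symplecticGroup (Fin n) (ZMod p)) :
    ∃ ξ : H → ℂ, IsCharacter H ξ ∧
      ∀ h, ξ h ^ 2 = Nat.card {v : Fin n ⊕ Fin n → ZMod p // f h • v = v} := by
  classical
  have : NeZero p := ⟨hp.out.ne_zero⟩
  obtain ⟨ψ, hψ⟩ : ∃ ψ : AddChar (ZMod p) ℂ, ψ ≠ 1 :=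
    ⟨_, ZMod.isPrimitive_stdAddChar p one_ne_zero⟩
  have cp : p.Coprime (Nat.card H) := hp.out.coprime_iff_not_dvd.2 hH
  have cq := cp.pow_left n
  have fr : Module.finrank ℂ ((Fin n → ZMod p) → ℂ) = p ^ n := by simp
  obtain ⟨ρ, r1, r2⟩ : ∃ ρ : Representation ℂ H ((Fin n → ZMod p) → ℂ),
      (∀ h, HeisImpl ψ (f h) (ρ h)) ∧ ∀ h, LinearMap.det (ρ h) = 1 := by
    let ρ₀ : Representation ℂ H ((Fin n → ZMod p) → ℂ) := (weilRep h2 hψ).comp f
    have d1 : ∀ h, LinearMap.det (ρ₀ h) ^ Nat.card H = 1 := fun h => by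
      rw [← map_pow, ← map_pow, pow_card_eq_one', map_one, map_one]
    refine ⟨⟨⟨fun h => LinearMap.det (ρ₀ h) ^ (-(p ^ n).gcdA (Nat.card H)) • ρ₀ h, by simp⟩, fun a b => by
      simp only [map_mul, mul_zpow, smul_mul_smul_comm]⟩, fun h => (heisImpl_weilRep h2 hψ _).smul _,
      fun h => ?_⟩
    have d0 : LinearMap.det (ρ₀ h) ≠ 0 := fun e => by simpa [e, Nat.card_pos.ne'] using d1 h
    have e := Nat.gcd_eq_gcd_ab (p ^ n) (Nat.card H)
    rw [cq, Nat.cast_one] at e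
    change LinearMap.det ((_ : ℂ) • ρ₀ h) = 1
    rw [LinearMap.det_smul, fr, ← zpow_natCast, ← zpow_mul, ← zpow_add_one₀ d0,
      show -(p ^ n).gcdA (Nat.card H) * ((p ^ n : ℕ) : ℤ) + 1 = Nat.card H * (p ^ n).gcdB (Nat.card H) by
        linear_combination e, zpow_mul, zpow_natCast, d1, one_zpow]
  obtain ⟨N, hN⟩ : ∃ N, Nat.card H = N + 1 := ⟨_, (Nat.succ_pred_eq_of_pos Nat.card_pos).symm⟩
  obtain ⟨m, m1, m2⟩ := Nat.chineseRemainder cp 1 N
  obtain ⟨σ, hσ⟩ := exists_ringEquiv_pow (m := m) (mul_ne_zero hp.out.ne_zero (Nat.card_pos (α := H)).ne')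
    (Nat.Coprime.mul_right (m1.gcd_eq.trans (Nat.gcd_one_left p)) (m2.gcd_eq.trans (by rw [hN]; simp)))
  obtain ⟨S, s1, s2, s3⟩ := wl_gal (ι := Fin n → ZMod p) σ
  have s4 : ∀ v, S (heis ψ v) = heis ψ v := fun v => s3 _ fun i j => by
    have k : ∀ x, ψ x ^ p = 1 := fun x => by
      rw [← AddChar.map_nsmul_eq_pow, nsmul_eq_mul, ZMod.natCast_self, zero_mul, AddChar.map_zero_eq_one]
    rw [heis_apply, map_mul, RingHom.coe_coe, hσ _ (by rw [pow_mul, k, one_pow]), pow_eq_pow_of_modEq m1 (k _),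
      pow_one, Pi.single_apply]
    split_ifs <;> simp
  refine ⟨_, isCharacter_character ρ, fun h => ?_⟩
  obtain ⟨c, hc⟩ := (r1 h).exists_smul h2 hψ ((Group.isUnit h).map ρ) (N := S (ρ h)) fun v => by
    rw [← s4 v, ← map_mul, r1, map_mul, s4]
  have c1 : c ^ p ^ n = 1 := by
    have := s1 (ρ h)
    rwa [hc, LinearMap.det_smul, r2, map_one, mul_one, fr] at this
  have c2 : c ^ Nat.card H = 1 := by
    have := congrArg (· ^ Nat.card H) hc
    simp only [smul_pow, ← map_pow, pow_card_eq_one', map_one] at this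
    simpa using (congrFun (LinearMap.congr_fun this 1) 0).symm
  obtain rfl : c = 1 := (pow_eq_one_iff_of_coprime cq).1 ⟨c1, c2⟩
  have e := (isCharacter_character ρ).galois_apply σ hσ h (by rw [mul_comm, pow_mul, pow_card_eq_one', one_pow])
  rw [pow_eq_pow_of_modEq m2 pow_card_eq_one', eq_inv_of_mul_eq_one_left ((pow_succ h N).symm.trans
    (hN ▸ pow_card_eq_one'))] at e
  rw [← trace_mul_trace_inv h2 hψ (r1 h) (N := ρ h⁻¹) (by rw [← map_mul, mul_inv_cancel, map_one]), pow_two]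
  congr 1
  exact (congrArg _ (hc.trans (one_smul _ _))).symm.trans ((s2 _).trans e)

/-- `exists_symplectic_basis` (Class/FormBasis) for `A` restricted to `U` gives
`f : H →* symplecticGroup` and `U ≃ₗ (Fin n ⊕ Fin n → ZMod p)` intertwining `ρ` and `f`;
`Θ = ξ ∘ fst`; `|C_U(h)| * ix = |U| = p ^ (2n)`. -/
theorem good_alt {V : Type*} [AddCommGroup V] [Module (ZMod p) V] [Finite V] (h2 : p ≠ 2)
    (hH : ¬ p ∣ Nat.card H) (ρ : Representation (ZMod p) H V) (U : Submodule (ZMod p) V)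
    (hU : ∀ h, ∀ x ∈ U, ρ h x ∈ U) (A : LinearMap.BilinForm (ZMod p) V) (hA : ∀ x, A x x = 0)
    (hi : ∀ h, ∀ x ∈ U, ∀ y ∈ U, A (ρ h x) (ρ h y) = A x y)
    (hB : ∀ x ∈ U, (∀ y ∈ U, A x y = 0) → x = 0) : Good p (ix ρ U) := by
  have hB' : ∀ x : U, (∀ y, A.restrict U x y = 0) → x = 0 := fun x h =>
    Subtype.ext (hB x x.2 fun y hy => h ⟨y, hy⟩)
  obtain ⟨m, -, hm, -⟩ := Class.exists_symplectic_basis (A.restrict U) (fun x => hA x) hB'
  obtain ⟨e, he⟩ := Class.Sp.exists_isometry_std (A.restrict U) (fun x => hA x) hB' hm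
  obtain ⟨f, hf⟩ := Class.Sp.exists_hom_of_rep (fun u v => A.restrict U u v) e he
    (ρ.subrepresentation U hU) fun g u v => hi g _ u.2 _ v.2
  obtain ⟨ξ, x1, x2⟩ := exists_weil (fun r => h2 ((Nat.prime_dvd_prime_iff_eq hp.out Nat.prime_two).1
    ((ZMod.natCast_eq_zero_iff 2 p).1 r))) hH f
  refine ⟨_, 4 * m, x1.comp (MonoidHom.fst _ _), fun h z _ => ?_⟩
  have c1 : Nat.card U.toAddSubgroup = p ^ (2 * m) := by
    rw [show Nat.card U.toAddSubgroup = _ from Nat.card_congr e.toEquiv]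
    simp [two_mul]
  have c2 : Nat.card ((LinearMap.ker (ρ h - 1)).toAddSubgroup.addSubgroupOf U.toAddSubgroup) =
      Nat.card {v : Fin m ⊕ Fin m → ZMod p // f h • v = v} :=
    Nat.card_congr (Equiv.subtypeEquiv e.toEquiv fun u : U => by
      exact (sub_eq_zero.trans (Subtype.ext_iff (a1 := ρ.subrepresentation U hU h u) (a2 := u)).symm).trans
        (e.injective.eq_iff.symm.trans (hf h u).symm.congr_left))
  have c3 := ((LinearMap.ker (ρ h - 1)).toAddSubgroup.addSubgroupOf U.toAddSubgroup).card_mul_index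
  rw [c1, c2] at c3
  change ξ h ^ 4 * _ = _
  rw [show ξ h ^ 4 = (ξ h ^ 2) ^ 2 by ring, x2, ← mul_pow, ← Nat.cast_mul, ix, AddSubgroup.relIndex, c3]
  push_cast
  ring

end Cfsg.Agent.KRV
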