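import Mathlib
import Cfsg.Agent.KRV.Defs
import Cfsg.Agent.KRV.Gau
import Cfsg.Agent.KRV.Wl
import Cfsg.Agent.S4966

/-! S4959: a self-dual coprime module is `Good`. -/

set_option autoImplicit false
set_option linter.unusedSectionVars false

namespace Cfsg.Agent.KRV

open Cfsg Cfsg.Agent.Char
open scoped ComplexConjugate

variable {p : ℕ} [hp : Fact p.Prime] {H : Type*} [Group H] [Finite H]

variable {V : Type*} [AddCommGroup V] [Module (ZMod p) V] [Finite V]

/-- `C_V(h) = C_U(h) ⊕ C_W(h)`. -/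
theorem ix_compl (ρ : Representation (ZMod p) H V) {U W : Submodule (ZMod p) V} (hc : IsCompl U W)
    (hU : ∀ h, ∀ x ∈ U, ρ h x ∈ U) (hW : ∀ h, ∀ x ∈ W, ρ h x ∈ W) (h : H) :
    ix ρ ⊤ h = ix ρ U h * ix ρ W h := by
  have e : ∀ X : Submodule (ZMod p) V,
      ix ρ X h = Nat.card (ZMod p) ^ Module.finrank (ZMod p) (X.map (ρ h - 1)) := fun X => by
    rw [← Module.natCard_eq_pow_finrank, ix, LinearMap.ker_toAddSubgroup, AddSubgroup.relIndex_ker]
    exact Nat.card_congr (Equiv.subtypeEquivRight fun _ => by simp)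
  have l : ∀ X : Submodule (ZMod p) V, (∀ h, ∀ x ∈ X, ρ h x ∈ X) → X.map (ρ h - 1) ≤ X := by
    rintro X hX _ ⟨x, hx, rfl⟩
    exact sub_mem (hX h x hx) hx
  rw [e, e, e, ← pow_add, ← Submodule.finrank_sup_add_finrank_inf_eq,
    (hc.disjoint.mono (l U hU) (l W hW)).eq_bot, finrank_bot, add_zero, ← Submodule.map_sup,
    hc.sup_eq_top]

/-- `p = 2`: `A = B₀ + B₀.flip` for `B₀ x y = ∑ i < j, x_i y_j A e_i e_j` (basis of `V`), so
`Q₀ x = B₀ x x` has polar form `A`; `Q x = ∑ h, Q₀ (ρ h x)` is invariant with polar form `|H| A = A` on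
`U`; `good_quad`. -/
theorem good_alt_two (h2 : p = 2) (hH : ¬ p ∣ Nat.card H) (ρ : Representation (ZMod p) H V)
    (U : Submodule (ZMod p) V) (hU : ∀ h, ∀ x ∈ U, ρ h x ∈ U) (A : LinearMap.BilinForm (ZMod p) V)
    (hA : ∀ x, A x x = 0) (hi : ∀ h, ∀ x ∈ U, ∀ y ∈ U, A (ρ h x) (ρ h y) = A x y)
    (hB : ∀ x ∈ U, (∀ y ∈ U, A x y = 0) → x = 0) : Good p (ix ρ U) := by
  have := Fintype.ofFinite H
  let b := Module.finBasis (ZMod p) V
  obtain ⟨B, h0⟩ : ∃ B : LinearMap.BilinForm (ZMod p) V, B + B.flip = A := by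
    refine ⟨b.constr (S := ZMod p) fun i => b.constr (S := ZMod p) fun j =>
      if i < j then A (b i) (b j) else 0, LinearMap.BilinForm.ext_basis b fun i j => ?_⟩
    simp only [LinearMap.add_apply, LinearMap.BilinForm.flip_apply, Module.Basis.constr_basis]
    obtain k | rfl | k := lt_trichotomy i j
    · simp [k, k.not_gt]
    · simp [hA]
    · subst h2
      simp only [k, k.not_gt, if_true, if_false, zero_add]
      rw [← LinearMap.IsAlt.neg hA, ZMod.neg_eq_self_mod_two]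
  refine good_quad hH ρ U hU (fun x => ∑ h, B (ρ h x) (ρ h x)) ((Nat.card H : ZMod p) • A)
    (fun x hx y hy => ?_) (fun a x _ => ?_) (fun g x _ => ?_) fun x hx k => hB x hx fun y hy => ?_
  · have : ∀ h, B (ρ h (x + y)) (ρ h (x + y)) = B (ρ h x) (ρ h x) + B (ρ h y) (ρ h y) + A x y :=
      fun h => by
        rw [← hi h x hx y hy, ← h0]
        simp only [map_add, LinearMap.add_apply, LinearMap.BilinForm.flip_apply]
        ring
    simp [-map_add, this, Finset.sum_add_distrib]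
  · simp [Finset.mul_sum, sq, mul_assoc]
  · rw [← Equiv.sum_comp (Equiv.mulRight g) fun h => B (ρ h x) (ρ h x)]
    simp
  · simpa [mt (ZMod.natCast_eq_zero_iff _ _).1 (Nat.card_eq_fintype_card (α := H) ▸ hH)] using k y hy

/-- S4966, `ix_compl`, `Good.mul`; `p` odd: `good_alt` and `good_quad` with `Q x = S x x`,
`B = 2 • S`; `p = 2`: `good_alt_two` and `ix ρ W h = 1`, `good_one`. -/
theorem good_top (hH : ¬ p ∣ Nat.card H) (ρ : Representation (ZMod p) H V)
    (B : LinearMap.BilinForm (ZMod p) V) (hB : ∀ x, (∀ y, B x y = 0) → x = 0)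
    (hi : ∀ h x y, B (ρ h x) (ρ h y) = B x y) : Good p (ix ρ ⊤) := by
  obtain ⟨U, W, hc, hU, hW, ⟨A, a1, a2, a3⟩, ⟨S, s1, s2, s3⟩, h2⟩ :=
    S4966.result p hH ρ B (LinearMap.BilinForm.Nondegenerate.ofSeparatingLeft hB) hi
  rw [show ix ρ ⊤ = fun h => ix ρ U h * ix ρ W h from funext (ix_compl ρ hc hU hW)]
  by_cases e : p = 2
  · refine (good_alt_two e hH ρ U hU A a1 a2 a3).mul ?_
    rw [show ix ρ W = fun _ => 1 from funext fun h => AddSubgroup.relIndex_eq_one.2 fun w hw =>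
      sub_eq_zero.2 (h2 e h w hw)]
    exact good_one
  refine (good_alt e hH ρ U hU A a1 a2 a3).mul (good_quad hH ρ W hW (fun x => S x x) (2 • S)
    (fun x _ y _ => ?_) (fun a x _ => ?_) (fun g x hx => s2 g x hx x hx)
    fun x hx k => s3 x hx fun y hy => ?_)
  · simp [s1 y x]; ring
  · simp [sq, mul_assoc]
  · have : (2 : ZMod p) ≠ 0 := fun k => e ((Nat.prime_dvd_prime_iff_eq hp.out Nat.prime_two).1
      ((ZMod.natCast_eq_zero_iff 2 p).1 k))
    simpa [this] using k y hy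

end Cfsg.Agent.KRV
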