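import Mathlib
import Cfsg.Agent.KRV.Defs
import Cfsg.Agent.KRV.Top
import Cfsg.Agent.KRV.Kn

/-! S4959: the group form of `good_top`. -/

set_option autoImplicit false
set_option linter.unusedSectionVars false

namespace Cfsg.Agent.KRV

open Cfsg Cfsg.Agent.Char
open scoped ComplexConjugate

variable {p : ℕ} [hp : Fact p.Prime] {H : Type*} [Group H] [Finite H]

open Subgroup

theorem good_add {A : Type*} [AddCommGroup A] [Module (ZMod p) A] [Finite A] (hH : ¬ p ∣ Nat.card H)
    (c : H → A →+ A) (c1 : ∀ u, c 1 u = u) (c2 : ∀ a b u, c (a * b) u = c a (c b u))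
    (β : A → A → ZMod p) (hl : ∀ u u' w, β (u + u') w = β u w + β u' w)
    (hr : ∀ u w w', β u (w + w') = β u w + β u w') (hi : ∀ h u w, β (c h u) (c h w) = β u w)
    (hn : ∀ u, (∀ w, β u w = 0) → u = 0) (C : H → AddSubgroup A) (hC : ∀ h u, u ∈ C h ↔ c h u = u) :
    Good p fun h : H => (C h).index := by
  let ρ : Representation (ZMod p) H A :=
    { toFun := fun h => (c h).toZModLinearMap p
      map_one' := LinearMap.ext c1
      map_mul' := fun a b => LinearMap.ext (c2 a b) }
  let B : LinearMap.BilinForm (ZMod p) A :=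
    (AddMonoidHom.mk' (fun u => (AddMonoidHom.mk' (β u) (hr u)).toZModLinearMap p)
      fun u u' => LinearMap.ext fun w => hl u u' w).toZModLinearMap p
  have := good_top hH ρ B hn hi
  convert this using 2 with h
  rw [ix, Submodule.top_toAddSubgroup, AddSubgroup.relIndex_top_right]
  congr 1
  ext u
  simp only [hC, Submodule.mem_toAddSubgroup, LinearMap.mem_ker, LinearMap.sub_apply,
    Module.End.one_apply, sub_eq_zero]
  rfl

theorem good_sub {X : Type*} [Group X] [Finite X] (K U : Subgroup X) (hK : ¬ p ∣ Nat.card K)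
    (hc : ∀ a ∈ U, ∀ b ∈ U, a * b = b * a) (he : ∀ a ∈ U, a ^ p = 1)
    (hU : ∀ h ∈ K, ∀ u ∈ U, h * u * h⁻¹ ∈ U) (β : X → X → ZMod p)
    (hl : ∀ u ∈ U, ∀ u' ∈ U, ∀ w ∈ U, β (u * u') w = β u w + β u' w)
    (hr : ∀ u ∈ U, ∀ w ∈ U, ∀ w' ∈ U, β u (w * w') = β u w + β u w')
    (hi : ∀ h ∈ K, ∀ u ∈ U, ∀ w ∈ U, β (h * u * h⁻¹) (h * w * h⁻¹) = β u w)
    (hn : ∀ u ∈ U, (∀ w ∈ U, β u w = 0) → u = 1) :
    Good p fun h : K => (centralizer {(h : X)}).relIndex U := by
  letI : CommGroup U :=
    { (inferInstance : Group U) with mul_comm := fun a b => Subtype.ext (hc a a.2 b b.2) }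
  have he' : ∀ x : Additive U, p • x = 0 := fun x => by
    apply Additive.toMul.injective
    exact Subtype.ext (by simpa using he _ x.toMul.2)
  let c : K → U →* U := fun h =>
    { toFun := fun u => ⟨h * u * (h : X)⁻¹, hU h h.2 u u.2⟩
      map_one' := Subtype.ext (by simp)
      map_mul' := fun a b => Subtype.ext (by simp [mul_assoc]) }
  exact @good_add p _ K _ _ (Additive U) _ (AddCommGroup.zmodModule he') _ hK
    (fun h => MonoidHom.toAdditive (c h))
    (fun u => Additive.toMul.injective (Subtype.ext (by simp [c])))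
    (fun a b u => Additive.toMul.injective (Subtype.ext (by simp [c, mul_assoc])))
    (fun u w => β (u.toMul : X) (w.toMul : X))
    (fun u u' w => hl _ u.toMul.2 _ u'.toMul.2 _ w.toMul.2)
    (fun u w w' => hr _ u.toMul.2 _ w.toMul.2 _ w'.toMul.2)
    (fun h u w => hi _ h.2 _ u.toMul.2 _ w.toMul.2)
    (fun x hx => Additive.toMul.injective (Subtype.ext
      (hn _ x.toMul.2 fun w hw => hx (Additive.ofMul ⟨w, hw⟩))))
    (fun h => ((centralizer {(h : X)}).subgroupOf U).toAddSubgroup) fun h u => by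
      rw [← Additive.toMul.injective.eq_iff, Subtype.ext_iff]
      change (u.toMul : X) ∈ centralizer {(h : X)} ↔ h * (u.toMul : X) * (h : X)⁻¹ = u.toMul
      rw [mem_centralizer_singleton_iff, mul_inv_eq_iff_eq_mul, eq_comm]

end Cfsg.Agent.KRV
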